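import Mathlib.GroupTheory.Commutator.Basic
import Mathlib.GroupTheory.QuotientGroup.Basic
import Mathlib.Tactic.Group
set_option linter.all false

/-!
# The commutator subgroup of a group generated by a set and the centre
-/

set_option autoImplicit false

universe u v w

namespace Cfsg.Agent.H487

open scoped commutatorElement

/-- If `Γ` is generated by `S` and its centre, and `N` is a subgroup normalised by `S` which
contains the commutators of the elements of `S`, then `N` contains the commutator subgroup. -/
theorem commutator_le_of_generators {Γ : Type u} [Group Γ] (S : Set Γ)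
    (hS : Subgroup.closure S ⊔ Subgroup.center Γ = ⊤) (N : Subgroup Γ)
    (hN : ∀ s ∈ S, ∀ n ∈ N, s * n * s⁻¹ ∈ N ∧ s⁻¹ * n * s ∈ N)
    (hc : ∀ s ∈ S, ∀ t ∈ S, ⁅s, t⁆ ∈ N) : N.Normal ∧ _root_.commutator Γ ≤ N := by
  have hnorm : N.Normal := by
    rw [← Subgroup.normalizer_eq_top_iff, eq_top_iff, ← hS]
    apply sup_le
    · rw [Subgroup.closure_le]
      intro s hs
      rw [SetLike.mem_coe, Subgroup.mem_normalizer_iff]
      intro n
      constructor
      · intro hn; exact (hN s hs n hn).1
      · intro hn
        have := (hN s hs _ hn).2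
        have e : s⁻¹ * (s * n * s⁻¹) * s = n := by group
        rwa [e] at this
    · intro z hz
      rw [Subgroup.mem_normalizer_iff]
      intro n
      have : z * n * z⁻¹ = n := by
        rw [← Subgroup.mem_center_iff.1 hz n]; group
      rw [this]
  refine ⟨hnorm, ?_⟩
  have hcent : ∀ s ∈ S, ∀ g : Γ, (⁅s, g⁆ : Γ) ∈ N := by
    intro s hs
    -- the elements commuting with `s` modulo `N`
    let C : Subgroup Γ := (Subgroup.centralizer {(QuotientGroup.mk' N s)}).comap
      (QuotientGroup.mk' N)
    have hC : C = ⊤ := by
      rw [eq_top_iff, ← hS]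
      apply sup_le
      · rw [Subgroup.closure_le]
        intro t ht
        change QuotientGroup.mk' N t ∈ Subgroup.centralizer {(QuotientGroup.mk' N s)}
        rw [Subgroup.mem_centralizer_singleton_iff]
        have h1 := hc s hs t ht
        have h2 : QuotientGroup.mk' N ⁅s, t⁆ = 1 := (QuotientGroup.eq_one_iff _).2 h1
        rw [map_commutatorElement, commutatorElement_eq_one_iff_mul_comm] at h2
        exact h2.symm
      · intro z hz
        change QuotientGroup.mk' N z ∈ Subgroup.centralizer {(QuotientGroup.mk' N s)}
        rw [Subgroup.mem_centralizer_singleton_iff, ← map_mul, ← map_mul,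
          Subgroup.mem_center_iff.1 hz s]
    intro g
    have hg : g ∈ C := by rw [hC]; exact Subgroup.mem_top g
    have hg' : QuotientGroup.mk' N g ∈ Subgroup.centralizer {(QuotientGroup.mk' N s)} := hg
    rw [Subgroup.mem_centralizer_singleton_iff] at hg'
    rw [← QuotientGroup.eq_one_iff]
    change QuotientGroup.mk' N ⁅s, g⁆ = 1
    rw [map_commutatorElement, commutatorElement_eq_one_iff_mul_comm]
    exact hg'.symm
  -- all elements are central modulo `N`
  have hall : (Subgroup.center (Γ ⧸ N)).comap (QuotientGroup.mk' N) = ⊤ := by
    rw [eq_top_iff, ← hS]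
    apply sup_le
    · rw [Subgroup.closure_le]
      intro s hs
      change QuotientGroup.mk' N s ∈ Subgroup.center (Γ ⧸ N)
      rw [Subgroup.mem_center_iff]
      intro g
      induction g using QuotientGroup.induction_on with
      | H g =>
        have h2 : QuotientGroup.mk' N ⁅s, g⁆ = 1 := (QuotientGroup.eq_one_iff _).2 (hcent s hs g)
        rw [map_commutatorElement, commutatorElement_eq_one_iff_mul_comm] at h2
        exact h2.symm
    · intro z hz
      change QuotientGroup.mk' N z ∈ Subgroup.center (Γ ⧸ N)
      rw [Subgroup.mem_center_iff]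
      intro g
      induction g using QuotientGroup.induction_on with
      | H g =>
        change QuotientGroup.mk' N g * QuotientGroup.mk' N z = _
        rw [← map_mul, Subgroup.mem_center_iff.1 hz g, map_mul]
        rfl
  rw [_root_.commutator_def, Subgroup.commutator_le]
  intro a _ b _
  have ha : a ∈ (Subgroup.center (Γ ⧸ N)).comap (QuotientGroup.mk' N) := by
    rw [hall]; exact Subgroup.mem_top a
  have ha' : QuotientGroup.mk' N a ∈ Subgroup.center (Γ ⧸ N) := ha
  rw [← QuotientGroup.eq_one_iff]
  change QuotientGroup.mk' N ⁅a, b⁆ = 1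
  rw [map_commutatorElement, commutatorElement_eq_one_iff_mul_comm]
  exact (Subgroup.mem_center_iff.1 ha' _).symm

end Cfsg.Agent.H487
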